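import Mathlib
import Cfsg.Prelude.Def_LocalEven
import Cfsg.Agent.H14.SubField

/-! Sylow 2-subgroups of some Goldschmidt groups (for S2755). -/

set_option autoImplicit false
set_option linter.unusedVariables false
set_option linter.unusedSectionVars false

namespace Cfsg.Agent.H78.RtP5

open Subgroup

theorem matrix_comm {F : Type*} [Field F] (A B C : Matrix (Fin 2) (Fin 2) F)
    (hA : ¬ (A 0 1 = 0 ∧ A 1 0 = 0 ∧ A 0 0 = A 1 1)) (hAB : A * B = B * A) (hAC : A * C = C * A) :
    B * C = C * B := by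
  have e1 := congrFun (congrFun hAB 0) 0
  have e2 := congrFun (congrFun hAB 0) 1
  have e3 := congrFun (congrFun hAB 1) 0
  have f1 := congrFun (congrFun hAC 0) 0
  have f2 := congrFun (congrFun hAC 0) 1
  have f3 := congrFun (congrFun hAC 1) 0
  simp only [Matrix.mul_apply, Fin.sum_univ_two] at e1 e2 e3 f1 f2 f3
  have g1 : A 0 1 * B 1 0 = B 0 1 * A 1 0 := by linear_combination e1
  have g2 : B 0 1 * (A 0 0 - A 1 1) = A 0 1 * (B 0 0 - B 1 1) := by linear_combination e2
  have g3 : A 1 0 * (B 0 0 - B 1 1) = B 1 0 * (A 0 0 - A 1 1) := by linear_combination e3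
  have h1 : A 0 1 * C 1 0 = C 0 1 * A 1 0 := by linear_combination f1
  have h2 : C 0 1 * (A 0 0 - A 1 1) = A 0 1 * (C 0 0 - C 1 1) := by linear_combination f2
  have h3 : A 1 0 * (C 0 0 - C 1 1) = C 1 0 * (A 0 0 - A 1 1) := by linear_combination f3
  have key : B 0 1 * C 1 0 = C 0 1 * B 1 0 ∧ B 0 1 * (C 0 0 - C 1 1) = C 0 1 * (B 0 0 - B 1 1) ∧
      B 1 0 * (C 0 0 - C 1 1) = C 1 0 * (B 0 0 - B 1 1) := by
    by_cases hb : A 0 1 = 0
    · by_cases hc : A 1 0 = 0
      · have hd : A 0 0 - A 1 1 ≠ 0 := by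
          intro h; exact hA ⟨hb, hc, sub_eq_zero.1 h⟩
        rw [hb] at g1 g2 h1 h2
        rw [hc] at g3 h3
        have b01 : B 0 1 = 0 := by
          rcases mul_eq_zero.1 (show B 0 1 * (A 0 0 - A 1 1) = 0 by rw [g2]; ring) with h | h
          · exact h
          · exact absurd h hd
        have c01 : C 0 1 = 0 := by
          rcases mul_eq_zero.1 (show C 0 1 * (A 0 0 - A 1 1) = 0 by rw [h2]; ring) with h | h
          · exact h
          · exact absurd h hd
        have b10 : B 1 0 = 0 := by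
          rcases mul_eq_zero.1 (show B 1 0 * (A 0 0 - A 1 1) = 0 by rw [← g3]; ring) with h | h
          · exact h
          · exact absurd h hd
        have c10 : C 1 0 = 0 := by
          rcases mul_eq_zero.1 (show C 1 0 * (A 0 0 - A 1 1) = 0 by rw [← h3]; ring) with h | h
          · exact h
          · exact absurd h hd
        rw [b01, c01, b10, c10]; simp
      · have k1 : B 0 1 * C 1 0 = C 0 1 * B 1 0 := by
          apply mul_left_cancel₀ hc
          linear_combination (-C 1 0) * g1 + B 1 0 * h1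
        refine ⟨k1, ?_, ?_⟩
        · apply mul_left_cancel₀ hc
          linear_combination (B 0 1) * h3 - C 0 1 * g3 + (A 0 0 - A 1 1) * k1
        · apply mul_left_cancel₀ hc
          linear_combination (B 1 0) * h3 - C 1 0 * g3
    · have k1 : B 0 1 * C 1 0 = C 0 1 * B 1 0 := by
        apply mul_left_cancel₀ hb
        linear_combination (B 0 1) * h1 - C 0 1 * g1
      refine ⟨k1, ?_, ?_⟩
      · apply mul_left_cancel₀ hb
        linear_combination C 0 1 * g2 - B 0 1 * h2
      · apply mul_left_cancel₀ hb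
        linear_combination C 1 0 * g2 - B 1 0 * h2 - (A 0 0 - A 1 1) * k1
  obtain ⟨k1, k2, k3⟩ := key
  ext i j
  fin_cases i <;> fin_cases j <;> simp only [Matrix.mul_apply, Fin.sum_univ_two, Fin.zero_eta, Fin.mk_one, Fin.isValue]
  · linear_combination k1
  · linear_combination -k2
  · linear_combination k3
  · linear_combination -k1

/-- groups of order dividing 4 are abelian -/
theorem comm_of_dvd_four {P : Type*} [Group P] [Finite P] (h : Nat.card P ∣ 4) (x y : P) : x * y = y * x := by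
  have h4 : Nat.card P ∣ 2 ^ 2 := by simpa using h
  obtain ⟨k, hk, hk'⟩ := (Nat.dvd_prime_pow Nat.prime_two).1 h4
  interval_cases k
  · have : Subsingleton P := (Nat.card_eq_one_iff_unique.1 (by simpa using hk')).1
    exact Subsingleton.elim _ _
  · haveI : Fact (Nat.Prime 2) := ⟨Nat.prime_two⟩
    haveI : IsCyclic P := isCyclic_of_prime_card (p := 2) (by simpa using hk')
    obtain ⟨g, hg⟩ := IsCyclic.exists_generator (α := P)
    obtain ⟨i, rfl⟩ := hg x
    obtain ⟨j, rfl⟩ := hg y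
    exact (Commute.refl g).zpow_zpow i j
  · haveI : Fact (Nat.Prime 2) := ⟨Nat.prime_two⟩
    exact IsPGroup.commutative_of_card_eq_prime_sq (p := 2) hk' x y

theorem card_sylow_dvd_four {K : Type*} [Group K] [Finite K] (h : ¬ 8 ∣ Nat.card K) (S : Sylow 2 K) :
    Nat.card S ∣ 4 := by
  haveI : Fact (Nat.Prime 2) := ⟨Nat.prime_two⟩
  obtain ⟨k, hk⟩ := (IsPGroup.iff_card (p := 2)).1 S.isPGroup'
  have hk2 : k ≤ 2 := by
    by_contra hc
    apply h
    have h1 : (2 : ℕ) ^ 3 ∣ 2 ^ k := pow_dvd_pow 2 (by omega)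
    rw [← hk] at h1
    have h2 : Nat.card (S : Subgroup K) ∣ Nat.card K := Subgroup.card_subgroup_dvd_card _
    exact (by simpa using h1 : 8 ∣ Nat.card (S : Subgroup K)).trans h2
  have : Nat.card S = 2 ^ k := hk
  rw [this]
  interval_cases k <;> norm_num

theorem not_eight {F : Type*} [Field F] [Fintype F] (q : ℕ) (hF : Fintype.card F = q) (hq : q % 8 = 3 ∨ q % 8 = 5) :
    ¬ 8 ∣ Nat.card (Matrix.ProjectiveSpecialLinearGroup (Fin 2) F) := by
  have ho : Odd (Fintype.card F) := by rw [hF, Nat.odd_iff]; omega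
  have h1 := Cfsg.Agent.H14.SubField.card_PSL2_odd ho
  rw [hF] at h1
  intro h8
  obtain ⟨c, hc⟩ := h8
  rw [hc] at h1
  have h2 : 16 ∣ q * ((q - 1) * (q + 1)) := by
    rw [← h1]
    exact ⟨c, by ring⟩
  have hoq : Nat.Coprime 16 q := by
    have : Odd q := hF ▸ ho
    exact Nat.Coprime.pow_left 4 (Nat.coprime_two_left.2 this)
  have h3 : 16 ∣ (q - 1) * (q + 1) := hoq.dvd_of_dvd_mul_left h2
  rcases hq with hq | hq
  · obtain ⟨a, ha⟩ : ∃ a, q = 8 * a + 3 := ⟨q / 8, by omega⟩
    subst ha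
    have : (8 * a + 3 - 1) * (8 * a + 3 + 1) = 16 * (4 * a * a + 3 * a) + 8 := by
      rw [show 8 * a + 3 - 1 = 8 * a + 2 by omega]; ring
    rw [this] at h3
    omega
  · obtain ⟨a, ha⟩ : ∃ a, q = 8 * a + 5 := ⟨q / 8, by omega⟩
    subst ha
    have : (8 * a + 5 - 1) * (8 * a + 5 + 1) = 16 * (4 * a * a + 5 * a + 1) + 8 := by
      rw [show 8 * a + 5 - 1 = 8 * a + 4 by omega]; ring
    rw [this] at h3
    omega

/-- [P5d3] -/
theorem psl2_38_ab {F : Type*} [Field F] [Fintype F] (q : ℕ) (hF : Fintype.card F = q) (hq : q % 8 = 3 ∨ q % 8 = 5)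
    (S : Sylow 2 (Matrix.ProjectiveSpecialLinearGroup (Fin 2) F)) : ∀ x ∈ S, ∀ y ∈ S, x * y = y * x := by
  intro x hx y hy
  have h := comm_of_dvd_four (card_sylow_dvd_four (not_eight q hF hq) S) ⟨x, hx⟩ ⟨y, hy⟩
  exact congrArg Subtype.val h

/-- a 2-subgroup of a group whose order is not divisible by 8 is abelian -/
theorem two_sub_ab {K : Type*} [Group K] [Finite K] (h : ¬ 8 ∣ Nat.card K) (Q : Subgroup K) (hQ : IsPGroup 2 Q) :
    ∀ x ∈ Q, ∀ y ∈ Q, x * y = y * x := by
  obtain ⟨S, hS⟩ := hQ.exists_le_sylow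
  intro x hx y hy
  have h := comm_of_dvd_four (card_sylow_dvd_four h S) ⟨x, hS hx⟩ ⟨y, hS hy⟩
  exact congrArg Subtype.val h

/-- Sylow 2-subgroups are abelian when `C(t) = ⟨t⟩ × K` has odd index and `8 ∤ |K|`. -/
theorem ab_of_cent {G : Type*} [Group G] [Finite G] (t : G) (K : Subgroup G) (ht : orderOf t = 2)
    (hodd : Odd (Subgroup.centralizer ({t} : Set G)).index)
    (hd : Cfsg.IsInternalDirectProduct (Subgroup.zpowers t) K (Subgroup.centralizer ({t} : Set G)))
    (h8 : ¬ 8 ∣ Nat.card K) (S : Sylow 2 G) : ∀ x ∈ S, ∀ y ∈ S, x * y = y * x := by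
  haveI : Fact (Nat.Prime 2) := ⟨Nat.prime_two⟩
  set C := Subgroup.centralizer ({t} : Set G) with hC
  -- a Sylow 2-subgroup fixes a coset of C
  have hfix : ∃ g : G, ∀ x ∈ S, g⁻¹ * x * g ∈ C := by
    have hS : IsPGroup 2 (S : Subgroup G) := S.isPGroup'
    have h1 : ¬ 2 ∣ Nat.card (G ⧸ C) := by
      have : Nat.card (G ⧸ C) = C.index := rfl
      rw [this]
      exact hodd.not_two_dvd_nat
    obtain ⟨c, hc⟩ := hS.nonempty_fixed_point_of_prime_not_dvd_card (G ⧸ C) h1
    induction c using QuotientGroup.induction_on with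
    | _ g =>
      refine ⟨g, fun x hx => ?_⟩
      have h2 := hc ⟨x, hx⟩
      have h3 : ((x * g : G) : G ⧸ C) = (g : G ⧸ C) := h2
      have h4 := QuotientGroup.eq.1 h3.symm
      rw [mul_assoc]; exact h4
  obtain ⟨g, hg⟩ := hfix
  obtain ⟨d1, d2, d3, d4, d5⟩ := hd
  -- t lies in every conjugate
  have htt : t * t = 1 := by rw [← pow_two, ← ht, pow_orderOf_eq_one]
  -- the 2-subgroup P = g⁻¹ S g
  let P : Subgroup G := (S : Subgroup G).map (MulAut.conj g⁻¹).toMonoidHom
  have hP2 : IsPGroup 2 P := S.isPGroup'.map _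
  have hPC : P ≤ C := by
    rintro _ ⟨x, hx, rfl⟩
    simpa [MulAut.conj_apply] using hg x hx
  -- decomposition
  have hdec : ∀ c ∈ C, ∃ k ∈ K, ∃ z ∈ Subgroup.zpowers t, c = z * k := by
    intro c hc
    rw [← d5] at hc
    have hn : (Subgroup.zpowers t ⊔ K : Subgroup G) = _ := rfl
    have hset : ∀ c : G, c ∈ Subgroup.zpowers t ⊔ K → ∃ k ∈ K, ∃ z ∈ Subgroup.zpowers t, c = z * k := by
      intro c hc
      refine Subgroup.closure_induction (k := (Subgroup.zpowers t : Set G) ∪ K)
        (p := fun c _ => ∃ k ∈ K, ∃ z ∈ Subgroup.zpowers t, c = z * k) ?_ ?_ ?_ ?_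
        (by rwa [Subgroup.closure_union, Subgroup.closure_eq, Subgroup.closure_eq])
      · rintro x (hx | hx)
        · exact ⟨1, K.one_mem, x, hx, by simp⟩
        · exact ⟨x, hx, 1, Subgroup.one_mem _, by simp⟩
      · exact ⟨1, K.one_mem, 1, Subgroup.one_mem _, by simp⟩
      · rintro x y - - ⟨k, hk, z, hz, rfl⟩ ⟨k', hk', z', hz', rfl⟩
        refine ⟨k * k', K.mul_mem hk hk', z * z', Subgroup.mul_mem _ hz hz', ?_⟩
        have := d3 z' hz' k hk
        rw [mul_assoc z k, ← mul_assoc k z', ← this]; group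
      · rintro x - ⟨k, hk, z, hz, rfl⟩
        refine ⟨k⁻¹, K.inv_mem hk, z⁻¹, Subgroup.inv_mem _ hz, ?_⟩
        have := d3 z⁻¹ (Subgroup.inv_mem _ hz) k⁻¹ (K.inv_mem hk)
        rw [mul_inv_rev, this]
    exact hset c hc
  -- the projection of P to K: a subgroup Q of K
  have hzz : ∀ z ∈ Subgroup.zpowers t, z * z = 1 := by
    rintro _ ⟨i, rfl⟩
    change t ^ i * t ^ i = 1
    rw [← zpow_add, ← two_mul, zpow_mul]
    have : t ^ (2 : ℤ) = 1 := by rw [zpow_two, htt]
    rw [this, one_zpow]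
  let Q : Subgroup K :=
    { carrier := {k : K | ∃ z ∈ Subgroup.zpowers t, z * (k : G) ∈ P}
      mul_mem' := by
        rintro a b ⟨z, hz, ha⟩ ⟨z', hz', hb⟩
        refine ⟨z * z', Subgroup.mul_mem _ hz hz', ?_⟩
        have := d3 z' hz' (a : G) a.2
        have h := P.mul_mem ha hb
        have h2 : z * z' * ((a * b : K) : G) = z * (a : G) * (z' * (b : G)) := by
          rw [Subgroup.coe_mul, mul_assoc z (a : G), ← mul_assoc (a : G) z', ← this]; group
        rw [h2]; exact h
      one_mem' := ⟨1, Subgroup.one_mem _, by simpa using P.one_mem⟩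
      inv_mem' := by
        rintro a ⟨z, hz, ha⟩
        refine ⟨z⁻¹, Subgroup.inv_mem _ hz, ?_⟩
        have := d3 z⁻¹ (Subgroup.inv_mem _ hz) (a : G)⁻¹ (K.inv_mem a.2)
        have h := P.inv_mem ha
        rw [mul_inv_rev, ← this] at h
        simpa using h }
  have hQ : IsPGroup 2 Q := by
    rintro ⟨k, z, hz, hk⟩
    obtain ⟨n, hn⟩ := hP2 ⟨_, hk⟩
    have hn' : (z * (k : G)) ^ 2 ^ n = 1 := congrArg Subtype.val hn
    refine ⟨n + 1, ?_⟩
    apply Subtype.ext
    apply Subtype.ext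
    change ((k : G)) ^ 2 ^ (n + 1) = 1
    have hc : Commute z (k : G) := d3 z hz k k.2
    have h1 : (z * (k : G)) ^ 2 ^ (n + 1) = 1 := by rw [pow_succ, pow_mul, hn', one_pow]
    rw [hc.mul_pow] at h1
    have h2 : z ^ 2 ^ (n + 1) = 1 := by rw [pow_succ, mul_comm, pow_mul, pow_two z, hzz z hz, one_pow]
    rwa [h2, one_mul] at h1
  have hQab := two_sub_ab h8 Q hQ
  -- P is abelian
  have hPab : ∀ x ∈ P, ∀ y ∈ P, x * y = y * x := by
    intro x hx y hy
    obtain ⟨k, hk, z, hz, rfl⟩ := hdec x (hPC hx)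
    obtain ⟨k', hk', z', hz', rfl⟩ := hdec y (hPC hy)
    have h1 : k * k' = k' * k := congrArg Subtype.val (hQab ⟨k, hk⟩ ⟨z, hz, hx⟩ ⟨k', hk'⟩ ⟨z', hz', hy⟩)
    have c1 : Commute z z' := by
      obtain ⟨i, rfl⟩ := hz
      obtain ⟨j, rfl⟩ := hz'
      exact (Commute.refl t).zpow_zpow i j
    have c2 : Commute z k' := d3 z hz k' hk'
    have c3 : Commute k z' := (d3 z' hz' k hk).symm
    have c4 : Commute k k' := h1
    exact ((c1.mul_right c2).mul_left (c3.mul_right c4)).eq
  intro x hx y hy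
  have h1 := hPab (g⁻¹ * x * g) ⟨x, hx, by simp [MulAut.conj_apply]⟩ (g⁻¹ * y * g) ⟨y, hy, by simp [MulAut.conj_apply]⟩
  have h2 : g * (g⁻¹ * x * g * (g⁻¹ * y * g)) * g⁻¹ = g * (g⁻¹ * y * g * (g⁻¹ * x * g)) * g⁻¹ := by rw [h1]
  simpa [mul_assoc] using h2

/-- [P5d6] Ree type -/
theorem ree_ab {G : Type*} [Group G] [Finite G] (h : Cfsg.IsReeType G) :
    ∀ S : Sylow 2 G, ∀ x ∈ S, ∀ y ∈ S, x * y = y * x := by
  obtain ⟨-, -, t, K, n, hn, ht, hodd, hd, F, i1, i2, hF, ⟨e⟩⟩ := h
  refine ab_of_cent t K ht hodd hd ?_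
  rw [Nat.card_congr e.toEquiv]
  refine not_eight (3 ^ (2 * n + 1)) hF (Or.inl ?_)
  rw [pow_succ, pow_mul]
  have : (3 ^ 2) ^ n % 8 = 1 := by rw [Nat.pow_mod]; norm_num
  omega

/-- centralizers in `PSL₂` of even characteristic are abelian -/
theorem psl2_even_cent {F : Type*} [Field F] [Fintype F] (n : ℕ) (hn : 1 ≤ n) (hF : Fintype.card F = 2 ^ n)
    (x : Matrix.ProjectiveSpecialLinearGroup (Fin 2) F) (hx : x ≠ 1)
    (a b : Matrix.ProjectiveSpecialLinearGroup (Fin 2) F) (ha : x * a = a * x) (hb : x * b = b * x) :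
    a * b = b * a := by
  have h2 : (2 : F) = 0 := by
    have h1 : ((Fintype.card F : ℕ) : F) = 0 := FiniteField.cast_card_eq_zero F
    rw [hF] at h1
    push_cast at h1
    exact pow_eq_zero_iff (by omega) |>.1 h1
  have hchar : ∀ z : F, z ^ 2 = 1 → z = 1 := by
    intro z hz
    have h3 : (z - 1) ^ 2 = 0 := by
      linear_combination hz + (1 - z) * h2
    exact sub_eq_zero.1 (pow_eq_zero_iff (two_ne_zero)|>.1 h3)
  have hscalar : ∀ A : Matrix.SpecialLinearGroup (Fin 2) F,
      (A 0 1 = 0 ∧ A 1 0 = 0 ∧ A 0 0 = A 1 1) → A = 1 := by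
    rintro A ⟨h1, h2, h3⟩
    have hdet := A.det_coe
    rw [Matrix.det_fin_two] at hdet
    have h4 : A 0 0 = 1 := by
      apply hchar
      rw [h1, h2, ← h3] at hdet
      linear_combination hdet
    ext i j
    fin_cases i <;> fin_cases j <;> simp [h1, h2, h4, ← h3]
  have hcenter : Subgroup.center (Matrix.SpecialLinearGroup (Fin 2) F) = ⊥ := by
    rw [eq_bot_iff]
    intro A hA
    rw [Matrix.SpecialLinearGroup.mem_center_iff] at hA
    obtain ⟨r, hr, hA⟩ := hA
    rw [Subgroup.mem_bot]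
    have hr1 : r = 1 := by
      apply hchar
      simpa using hr
    ext i j
    rw [← hA, hr1]
    simp
  induction x using QuotientGroup.induction_on with
  | _ A =>
    induction a using QuotientGroup.induction_on with
    | _ B =>
      induction b using QuotientGroup.induction_on with
      | _ C =>
        have hinj : ∀ X Y : Matrix.SpecialLinearGroup (Fin 2) F,
            (X : Matrix.SpecialLinearGroup (Fin 2) F ⧸ Subgroup.center (Matrix.SpecialLinearGroup (Fin 2) F)) = Y → X = Y := by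
          intro X Y h
          have h1 := QuotientGroup.eq.1 h
          rw [hcenter, Subgroup.mem_bot] at h1
          exact (inv_mul_eq_one.1 h1)
        have hAB' : A * B = B * A := hinj _ _ ha
        have hAC' : A * C = C * A := hinj _ _ hb
        have hA' : A ≠ 1 := by
          rintro rfl; exact hx rfl
        have : B * C = C * B := by
          apply Subtype.ext
          rw [Matrix.SpecialLinearGroup.coe_mul, Matrix.SpecialLinearGroup.coe_mul]
          apply matrix_comm (A : Matrix (Fin 2) (Fin 2) F)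
          · intro h
            exact hA' (hscalar A h)
          · rw [← Matrix.SpecialLinearGroup.coe_mul, ← Matrix.SpecialLinearGroup.coe_mul, hAB']
          · rw [← Matrix.SpecialLinearGroup.coe_mul, ← Matrix.SpecialLinearGroup.coe_mul, hAC']
        exact congrArg (QuotientGroup.mk (s := Subgroup.center (Matrix.SpecialLinearGroup (Fin 2) F))) this

/-- if centralizers of nonidentity elements are abelian then Sylow subgroups are TI -/
theorem ti_of_cent {G : Type*} [Group G] [Finite G]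
    (h : ∀ x : G, x ≠ 1 → ∀ a b : G, x * a = a * x → x * b = b * x → a * b = b * a)
    (S T : Sylow 2 G) (hne : S ≠ T) : S.toSubgroup ⊓ T.toSubgroup = ⊥ := by
  haveI : Fact (Nat.Prime 2) := ⟨Nat.prime_two⟩
  -- Sylow subgroups are abelian
  have hab : ∀ S : Sylow 2 G, ∀ x ∈ S, ∀ y ∈ S, x * y = y * x := by
    intro S x hx y hy
    rcases subsingleton_or_nontrivial (S : Subgroup G) with hs | hs
    · have : x = 1 := congrArg Subtype.val (Subsingleton.elim (⟨x, hx⟩ : (S : Subgroup G)) 1)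
      rw [this, one_mul, mul_one]
    · haveI := S.isPGroup'.center_nontrivial
      obtain ⟨z, hz⟩ := exists_ne (1 : Subgroup.center (S : Subgroup G))
      have hz1 : ((z : (S : Subgroup G)) : G) ≠ 1 := by
        intro h'
        exact hz (Subtype.ext (Subtype.ext h'))
      have hzc : ∀ w ∈ S, ((z : (S : Subgroup G)) : G) * w = w * ((z : (S : Subgroup G)) : G) := by
        intro w hw
        have := Subgroup.mem_center_iff.1 z.2 ⟨w, hw⟩
        exact (congrArg Subtype.val this).symm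
      exact h _ hz1 x y (hzc x hx) (hzc y hy)
  rw [eq_bot_iff]
  rintro x ⟨hxS, hxT⟩
  rw [Subgroup.mem_bot]
  by_contra hx
  apply hne
  -- every element of S commutes with every element of T
  have hST : ∀ a ∈ S, ∀ b ∈ T, a * b = b * a := fun a ha b hb =>
    h x hx a b (hab S x hxS a ha) (hab T x hxT b hb)
  have hsup : IsPGroup 2 (S.toSubgroup ⊔ T.toSubgroup : Subgroup G) := by
    have hle : S.toSubgroup ≤ Subgroup.normalizer (T.toSubgroup : Set G) := by
      intro a ha
      rw [Subgroup.mem_normalizer_iff]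
      intro b
      constructor
      · intro hb
        have := hST a ha b hb
        rw [this, mul_inv_cancel_right]; exact hb
      · intro hb
        have h1 := hST a ha _ hb
        have h2 : a * b * a⁻¹ = b := by
          have h3 : a * (a * b * a⁻¹) * a⁻¹ = a * b * a⁻¹ := by rw [h1]; group
          have h4 : a⁻¹ * (a * (a * b * a⁻¹) * a⁻¹) * a = a⁻¹ * (a * b * a⁻¹) * a := by rw [h3]
          simpa [mul_assoc] using h4
        rwa [h2] at hb
    exact IsPGroup.to_sup_of_normal_right' S.isPGroup' T.isPGroup' hle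
  have e1 : (S.toSubgroup ⊔ T.toSubgroup : Subgroup G) = S.toSubgroup := S.is_maximal' hsup le_sup_left
  have e2 : (S.toSubgroup ⊔ T.toSubgroup : Subgroup G) = T.toSubgroup := T.is_maximal' hsup le_sup_right
  exact Sylow.ext (e1.symm.trans e2)

/-- [P5d1] -/
theorem psl2_even_ti {F : Type*} [Field F] [Fintype F] (n : ℕ) (hn : 1 ≤ n) (hF : Fintype.card F = 2 ^ n)
    (S T : Sylow 2 (Matrix.ProjectiveSpecialLinearGroup (Fin 2) F)) (h : S ≠ T) : S.toSubgroup ⊓ T.toSubgroup = ⊥ :=
  ti_of_cent (fun x hx a b ha hb => psl2_even_cent n hn hF x hx a b ha hb) S T h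

end Cfsg.Agent.H78.RtP5
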