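import Cfsg.Agent.H20.HarDef

set_option autoImplicit false
set_option maxHeartbeats 800000

/-! The wreath product case (S1234) reduced to the self-centralizing `E₈` case. -/

namespace Cfsg.Agent.H78.HarR1
open Subgroup Cfsg

theorem exists_A {S : Type*} [Group S] [Finite S] (Q E : Subgroup S) (hEQ : E ≤ Q)
    (hE : Cfsg.IsElementaryAbelian 2 E) (hE16 : Nat.card E = 16) (hQ32 : Nat.card Q = 32) (s : S) (hsQ : s ∈ Q)
    (hsE : s ∉ E) (hs : orderOf s = 2) (hfix : Nat.card ↥(E ⊓ Subgroup.centralizer ({s} : Set S)) = 4)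
    (hC : Subgroup.centralizer (((Subgroup.center Q).map Q.subtype : Subgroup S) : Set S) = Q) :
    ∃ A : Subgroup S, Cfsg.IsElementaryAbelian 2 A ∧ Nat.card A = 8 ∧ Subgroup.centralizer (A : Set S) = A := by
  have hss : s * s = 1 := by rw [← pow_two, ← hs]; exact pow_orderOf_eq_one s
  have hsi : s⁻¹ = s := inv_eq_of_mul_eq_one_left hss
  have hEc : ∀ x ∈ E, ∀ y ∈ E, x * y = y * x := by
    intro x hx y hy
    exact congrArg Subtype.val (hE.1.is_comm.comm ⟨x, hx⟩ ⟨y, hy⟩)
  have hEs : ∀ x ∈ E, x * x = 1 := fun x hx => by rw [← pow_two]; exact hE.2 x hx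
  -- `Q = E ∪ E s`
  have hind : (E.subgroupOf Q).index = 2 := by
    have h1 := Subgroup.card_mul_index (E.subgroupOf Q)
    have h2 : Nat.card (E.subgroupOf Q) = 16 := by
      rw [← hE16, ← Subgroup.card_map_of_injective (K := E.subgroupOf Q) Q.subtype_injective,
        Subgroup.subgroupOf_map_subtype, inf_eq_left.2 hEQ]
    rw [h2, hQ32] at h1
    omega
  have hQE : ∀ x ∈ Q, x ∈ E ∨ x * s ∈ E := by
    intro x hx
    by_cases hxE : x ∈ E
    · exact Or.inl hxE
    · right
      have h1 := Subgroup.mul_mem_iff_of_index_two hind (a := ⟨x, hx⟩) (b := ⟨s, hsQ⟩)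
      have h2 : (⟨x, hx⟩ * ⟨s, hsQ⟩ : Q) ∈ E.subgroupOf Q := by
        rw [h1]
        exact ⟨fun h => absurd h hxE, fun h => absurd h hsE⟩
      exact h2
  set W : Subgroup S := E ⊓ Subgroup.centralizer {s} with hW
  have hWm : ∀ x, x ∈ W ↔ x ∈ E ∧ x * s = s * x := by
    intro x
    rw [hW, Subgroup.mem_inf, Subgroup.mem_centralizer_singleton_iff]
  -- the center of `Q`
  have hEW : ¬ ∀ x ∈ E, x * s = s * x := by
    intro h
    have : E ≤ W := fun x hx => (hWm x).2 ⟨hx, h x hx⟩
    have := Subgroup.card_le_of_le this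
    rw [hE16, hfix] at this
    omega
  have hZ : ∀ x, x ∈ (Subgroup.center Q).map Q.subtype ↔ x ∈ W := by
    intro x
    constructor
    · rintro ⟨⟨x, hxQ⟩, hx, rfl⟩
      rw [SetLike.mem_coe, Subgroup.mem_center_iff] at hx
      have hx' : ∀ g ∈ Q, g * x = x * g := fun g hg => congrArg Subtype.val (hx ⟨g, hg⟩)
      change x ∈ W
      rcases hQE x hxQ with h | h
      · exact (hWm x).2 ⟨h, (hx' s hsQ).symm⟩
      · exfalso
        apply hEW
        intro y hy
        have h1 := hEc _ h y hy
        have h2 := hx' y (hEQ hy)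
        -- `x s y = y x s = x y s`
        have h3 : x * (s * y) = x * (y * s) := by
          calc x * (s * y) = (x * s) * y := by group
            _ = y * (x * s) := h1
            _ = (y * x) * s := by group
            _ = (x * y) * s := by rw [h2]
            _ = _ := by group
        exact (mul_left_cancel h3).symm
    · intro hx
      obtain ⟨hxE, hxs⟩ := (hWm x).1 hx
      refine ⟨⟨x, hEQ hxE⟩, ?_, rfl⟩
      rw [SetLike.mem_coe, Subgroup.mem_center_iff]
      rintro ⟨g, hg⟩
      apply Subtype.ext
      change g * x = x * g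
      rcases hQE g hg with h | h
      · exact hEc g h x hxE
      · have h1 := hEc _ h x hxE
        have h2 : g * x * s = x * g * s := by
          calc g * x * s = g * (x * s) := by group
            _ = g * (s * x) := by rw [hxs]
            _ = (g * s) * x := by group
            _ = x * (g * s) := h1
            _ = _ := by group
        exact mul_right_cancel h2
  have hCQ : ∀ x, (∀ w ∈ W, w * x = x * w) → x ∈ Q := by
    intro x hx
    rw [← hC, Subgroup.mem_centralizer_iff]
    intro h hh
    exact hx h ((hZ h).1 hh)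
  have hdec : ∀ x, x * s ∈ W → ∃ w ∈ W, x = w * s := fun x hx => ⟨x * s, hx, by rw [mul_assoc, hss, mul_one]⟩
  let A : Subgroup S :=
    { carrier := {x | x ∈ W ∨ x * s ∈ W}
      one_mem' := Or.inl W.one_mem
      mul_mem' := by
        rintro x y (hx | hx) (hy | hy)
        · exact Or.inl (W.mul_mem hx hy)
        · right
          rw [mul_assoc]
          exact W.mul_mem hx hy
        · right
          have h1 := ((hWm y).1 hy).2
          have h2 : x * y * s = (x * s) * y := by rw [mul_assoc, h1, mul_assoc]
          rw [h2]; exact W.mul_mem hx hy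
        · left
          obtain ⟨w, hw, rfl⟩ := hdec x hx
          obtain ⟨w', hw', rfl⟩ := hdec y hy
          have h1 := ((hWm w').1 hw').2
          have h2 : w * s * (w' * s) = w * w' := by
            calc w * s * (w' * s) = w * (s * w') * s := by group
              _ = w * (w' * s) * s := by rw [h1]
              _ = w * w' * (s * s) := by group
              _ = _ := by rw [hss, mul_one]
          rw [h2]; exact W.mul_mem hw hw'
      inv_mem' := by
        rintro x (hx | hx)
        · exact Or.inl (W.inv_mem hx)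
        · right
          obtain ⟨w, hw, rfl⟩ := hdec x hx
          have h1 := ((hWm _).1 (W.inv_mem hw)).2
          rw [mul_inv_rev, hsi, ← h1, mul_assoc, hss, mul_one]
          exact W.inv_mem hw }
  have hAm : ∀ x, x ∈ A ↔ x ∈ W ∨ x * s ∈ W := fun x => Iff.rfl
  have hWA : W ≤ A := fun x hx => Or.inl hx
  have hsA : s ∈ A := Or.inr (by rw [hss]; exact W.one_mem)
  have hAc : ∀ x ∈ A, ∀ y ∈ A, x * y = y * x := by
    have hWc : ∀ x ∈ W, ∀ y ∈ W, x * y = y * x := fun x hx y hy =>
      hEc x ((hWm x).1 hx).1 y ((hWm y).1 hy).1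
    have hWsc : ∀ x ∈ W, ∀ y ∈ A, x * y = y * x := by
      intro x hx y hy
      rcases hy with hy | hy
      · exact hWc x hx y hy
      · obtain ⟨w, hw, rfl⟩ := hdec y hy
        have h1 := ((hWm x).1 hx).2
        calc x * (w * s) = (x * w) * s := by group
          _ = (w * x) * s := by rw [hWc x hx w hw]
          _ = w * (x * s) := by group
          _ = w * (s * x) := by rw [h1]
          _ = _ := by group
    intro x hx y hy
    rcases hx with hx | hx
    · exact hWsc x hx y hy
    · obtain ⟨w, hw, rfl⟩ := hdec x hx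
      have h1 := hWsc w hw y hy
      have h2 : s * y = y * s := by
        rcases hy with hy | hy
        · exact (((hWm y).1 hy).2).symm
        · obtain ⟨w', hw', rfl⟩ := hdec y hy
          have h3 := ((hWm w').1 hw').2
          rw [← mul_assoc, ← h3]
      calc w * s * y = w * (s * y) := by group
        _ = w * (y * s) := by rw [h2]
        _ = (w * y) * s := by group
        _ = (y * w) * s := by rw [h1]
        _ = _ := by group
  have hAs : ∀ x ∈ A, x * x = 1 := by
    intro x hx
    rcases hx with hx | hx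
    · exact hEs x ((hWm x).1 hx).1
    · obtain ⟨w, hw, rfl⟩ := hdec x hx
      have h1 := ((hWm w).1 hw).2
      calc w * s * (w * s) = w * (s * w) * s := by group
        _ = w * (w * s) * s := by rw [h1]
        _ = (w * w) * (s * s) := by group
        _ = 1 := by rw [hEs w ((hWm w).1 hw).1, hss, mul_one]
  have hsW : s ∉ W := fun h => hsE ((hWm s).1 h).1
  have hcard : Nat.card A = 8 := by
    have h1 : (W.subgroupOf A).index = 2 := by
      rw [Subgroup.index_eq_two_iff]
      refine ⟨⟨s, hsA⟩, ?_⟩
      rintro ⟨b, hb⟩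
      have e1 : ((⟨b, hb⟩ * ⟨s, hsA⟩ : A) ∈ W.subgroupOf A) = (b * s ∈ W) := rfl
      have e2 : ((⟨b, hb⟩ : A) ∈ W.subgroupOf A) = (b ∈ W) := rfl
      rw [e1, e2]
      rcases hb with hb | hb
      · refine Or.inr ⟨hb, fun h => hsW ?_⟩
        have := W.mul_mem (W.inv_mem hb) h
        rwa [inv_mul_cancel_left] at this
      · refine Or.inl ⟨hb, fun h => hsW ?_⟩
        have := W.mul_mem (W.inv_mem h) hb
        rwa [inv_mul_cancel_left] at this
    have h2 := Subgroup.card_mul_index (W.subgroupOf A)
    have h3 : Nat.card (W.subgroupOf A) = 4 := by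
      rw [← hfix, ← Subgroup.card_map_of_injective (K := W.subgroupOf A) A.subtype_injective,
        Subgroup.subgroupOf_map_subtype, inf_eq_left.2 hWA]
    rw [h1, h3] at h2
    omega
  refine ⟨A, ⟨⟨⟨?_⟩⟩, fun a ha => by rw [pow_two]; exact hAs a ha⟩, hcard, ?_⟩
  · rintro ⟨x, hx⟩ ⟨y, hy⟩
    exact Subtype.ext (hAc x hx y hy)
  · apply le_antisymm
    · intro x hx
      rw [Subgroup.mem_centralizer_iff] at hx
      have hxQ : x ∈ Q := hCQ x (fun w hw => hx w (hWA hw))
      have hxs : s * x = x * s := hx s hsA
      rcases hQE x hxQ with h | h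
      · exact Or.inl ((hWm x).2 ⟨h, hxs.symm⟩)
      · right
        refine (hWm _).2 ⟨h, ?_⟩
        rw [← mul_assoc, hxs]
    · intro x hx
      rw [Subgroup.mem_centralizer_iff]
      intro y hy
      exact hAc y hy x hx

end Cfsg.Agent.H78.HarR1
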